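import Cfsg.Agent.H416.LB.Solve
import Cfsg.Agent.H416.LB.Hist
import Cfsg.Agent.H656.LB.Tab

/-!
# S4879, row `E₈`: the multiplicities as histogram sums (helper416; tables of helper348 / helper656)

`deg · Σ H c * av c = 6720 · X` resp. `240 · X`, for the histograms of `H416/LB/Hist.lean`.
-/

set_option autoImplicit false
set_option maxRecDepth 20000

namespace Cfsg.Agent.H416.LB

open Finset

theorem ix6_injective : Function.Injective ix6 := by decide +kernel

theorem ix7_injective : Function.Injective ix7 := by decide +kernel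

/-- from the integer identity to the rational one, `6720` points -/
theorem sum6 {H : Fin 26 → ℤ} {k : Fin 10} {X : ℤ}
    (h : (dg6 k : ℤ) * ((List.finRange 26).map fun c => H c * AM k c).sum = 7257600 * X) :
    (dg6 k : ℚ) * ∑ c, (H c : ℚ) * av6 k c = 6720 * (X : ℚ) := by
  rw [← sum_fin] at h
  have h1 := congrArg (fun z : ℤ => (z : ℚ)) h
  push_cast at h1
  have h2 : ∑ c, (H c : ℚ) * av6 k c = (1 / 1080) * ∑ c, (H c : ℚ) * (AM k c : ℚ) := by
    rw [Finset.mul_sum]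
    exact Finset.sum_congr rfl fun c _ => by rw [av6]; ring
  rw [h2]
  linear_combination (1 / 1080) * h1

/-- from the integer identity to the rational one, `240` roots -/
theorem sum7 {H : Fin 5 → ℤ} {k : Fin 5} {X : ℤ}
    (h : (dg7 k : ℤ) * ((List.finRange 5).map fun c => H c * A5 k c).sum = 20160 * X) :
    (dg7 k : ℚ) * ∑ c, (H c : ℚ) * av7 k c = 240 * (X : ℚ) := by
  rw [← sum_fin] at h
  have h1 := congrArg (fun z : ℤ => (z : ℚ)) h
  push_cast at h1
  have h2 : ∑ c, (H c : ℚ) * av7 k c = (1 / 84) * ∑ c, (H c : ℚ) * (A5 k c : ℚ) := by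
    rw [Finset.mul_sum]
    exact Finset.sum_congr rfl fun c _ => by rw [av7]; ring
  rw [h2]
  linear_combination (1 / 84) * h1

/-- the degrees from the functions -/
theorem dg6_spec (k : Fin 10) : (dg6 k : ℚ) * ∑ c, (sz6 c : ℚ) * (av6 k c * av6 k c) = 6720 := by
  have h : ∀ k : Fin 10, (dg6 k : ℤ) * ((List.finRange 26).map fun c => (sz6 c : ℤ) * (AM k c * AM k c)).sum =
      7838208000 := by decide +kernel
  have h0 := h k
  rw [← sum_fin] at h0
  have h1 := congrArg (fun z : ℤ => (z : ℚ)) h0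
  push_cast at h1
  have h2 : ∑ c, (sz6 c : ℚ) * (av6 k c * av6 k c) = (1 / 1166400) * ∑ c, (sz6 c : ℚ) * ((AM k c : ℚ) * (AM k c : ℚ)) := by
    rw [Finset.mul_sum]
    exact Finset.sum_congr rfl fun c _ => by rw [av6]; ring
  rw [h2]
  linear_combination (1 / 1166400) * h1

/-- the degrees from the functions -/
theorem dg7_spec (k : Fin 5) : (dg7 k : ℚ) * ∑ c, (sz7 c : ℚ) * (av7 k c * av7 k c) = 240 := by
  have h : ∀ k : Fin 5, (dg7 k : ℤ) * ((List.finRange 5).map fun c => (sz7 c : ℤ) * (A5 k c * A5 k c)).sum =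
      1693440 := by decide +kernel
  have h0 := h k
  rw [← sum_fin] at h0
  have h1 := congrArg (fun z : ℤ => (z : ℚ)) h0
  push_cast at h1
  have h2 : ∑ c, (sz7 c : ℚ) * (av7 k c * av7 k c) = (1 / 7056) * ∑ c, (sz7 c : ℚ) * ((A5 k c : ℚ) * (A5 k c : ℚ)) := by
    rw [Finset.mul_sum]
    exact Finset.sum_congr rfl fun c _ => by rw [av7]; ring
  rw [h2]
  linear_combination (1 / 7056) * h1

/-- **A7, E6, A6A1, A4A2A1, D4A2, A4A1 on the 6720 points.** -/
theorem mu10a (k : Fin 10) (j : Fin 6) :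
    (dg6 k : ℚ) * ∑ c, (HX10_6 j c : ℚ) * av6 k c = 6720 * (H656.LB.X10 (ix6 k) j : ℚ) := by
  have h : ∀ (k : Fin 10) (j : Fin 6), (dg6 k : ℤ) * ((List.finRange 26).map fun c => HX10_6 j c * AM k c).sum =
      7257600 * H656.LB.X10 (ix6 k) j := by decide +kernel
  exact sum6 (h k j)

/-- **A7, E6, A6A1, A4A2A1, D4A2, A4A1 on the roots.** -/
theorem mu10b (k : Fin 5) (j : Fin 6) :
    (dg7 k : ℚ) * ∑ c, (HX10_7 j c : ℚ) * av7 k c = 240 * (H656.LB.X10 (ix7 k) j : ℚ) := by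
  have h : ∀ (k : Fin 5) (j : Fin 6), (dg7 k : ℤ) * ((List.finRange 5).map fun c => HX10_7 j c * A5 k c).sum =
      20160 * H656.LB.X10 (ix7 k) j := by decide +kernel
  exact sum7 (h k j)

/-- **D4, A3+2A1, A3A2, A3A2A1, D4A2 on the 6720 points.** -/
theorem mu5a (k : Fin 10) (j : Fin 5) :
    (dg6 k : ℚ) * ∑ c, (HX5_6 j c : ℚ) * av6 k c = 6720 * (H656.LB.X5 (ix6 k) j : ℚ) := by
  have h : ∀ (k : Fin 10) (j : Fin 5), (dg6 k : ℤ) * ((List.finRange 26).map fun c => HX5_6 j c * AM k c).sum =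
      7257600 * H656.LB.X5 (ix6 k) j := by decide +kernel
  exact sum6 (h k j)

/-- **D4, A3+2A1, A3A2, A3A2A1, D4A2 on the roots.** -/
theorem mu5b (k : Fin 5) (j : Fin 5) :
    (dg7 k : ℚ) * ∑ c, (HX5_7 j c : ℚ) * av7 k c = 240 * (H656.LB.X5 (ix7 k) j : ℚ) := by
  have h : ∀ (k : Fin 5) (j : Fin 5), (dg7 k : ℤ) * ((List.finRange 5).map fun c => HX5_7 j c * A5 k c).sum =
      20160 * H656.LB.X5 (ix7 k) j := by decide +kernel
  exact sum7 (h k j)

/-- **signed: ∅, A1, 2A1, A2, 3A1, A2+2A1, 4A1 on the 6720 points.** -/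
theorem nu5a (k : Fin 10) (j : Fin 7) :
    (dg6 k : ℚ) * ∑ c, (HY5_6 j c : ℚ) * av6 k c = 6720 * (H656.LB.Y5 (ix6 k) j : ℚ) := by
  have h : ∀ (k : Fin 10) (j : Fin 7), (dg6 k : ℤ) * ((List.finRange 26).map fun c => HY5_6 j c * AM k c).sum =
      7257600 * H656.LB.Y5 (ix6 k) j := by decide +kernel
  exact sum6 (h k j)

/-- **signed: ∅, A1, 2A1, A2, 3A1, A2+2A1, 4A1 on the roots.** -/
theorem nu5b (k : Fin 5) (j : Fin 7) :
    (dg7 k : ℚ) * ∑ c, (HY5_7 j c : ℚ) * av7 k c = 240 * (H656.LB.Y5 (ix7 k) j : ℚ) := by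
  have h : ∀ (k : Fin 5) (j : Fin 7), (dg7 k : ℤ) * ((List.finRange 5).map fun c => HY5_7 j c * A5 k c).sum =
      20160 * H656.LB.Y5 (ix7 k) j := by decide +kernel
  exact sum7 (h k j)

end Cfsg.Agent.H416.LB
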